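import Mathlib
import Cfsg.Prelude.Def_OddOrderLocal
import Cfsg.Statements.S1350
import Cfsg.Statements.S1408
import Cfsg.Statements.S1409
import Cfsg.Statements.S1412
import Cfsg.Statements.S1414
import Cfsg.Statements.S1416
import Cfsg.Statements.S1417

/-!
# S1421 = Bender–Glauberman Lemma 12.12: package statements (team project led by helper70)

Each `Lem…` below is the exact statement of one package; a package is a theorem
`… : Cfsg.Agent.Lib.Helper70.BG21.Lem….{u}` in the taker's own Lib file.  Generic packages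
(`LemF`, `LemC`, `LemD`, `LemOmega`, `LemT`, `LemAsmA`, `LemAsmB`, `LemNfin`) are pure finite group
theory.  The Bender–Glauberman packages (`LemA5`, `LemA7`, `LemGlob`, `LemA9`, `LemN3`) use the
context structure `CtxA` and frozen statements as `type_of%` hypotheses.

Notation: `V = M_σ`; an element `e` is *regular* when `V ∩ C_G(e) = 1` and *singular* otherwise.
-/

set_option autoImplicit false

namespace Cfsg.Agent.Lib.Helper70.BG21

open Cfsg

universe u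

/-- The conclusion of S1421. -/
def Concl {G : Type u} [Group G] (M E : Subgroup G) : Prop :=
  (∃ A₀ : Subgroup G, A₀ ≤ E ∧ E ≤ Subgroup.normalizer (A₀ : Set G) ∧ IsMulCommutative A₀ ∧
      ∀ x ∈ Cfsg.sigmaCore M, x ≠ 1 → E ⊓ Subgroup.centralizer ({x} : Set G) ≤ A₀) ∧
    ∃ E₀ : Subgroup G, E₀ ≤ E ∧ Monoid.exponent E₀ = Monoid.exponent E ∧
      ∀ e ∈ E₀, e ≠ 1 → Cfsg.sigmaCore M ⊓ Subgroup.centralizer ({e} : Set G) = ⊥

/-- The local data at a prime `p ∈ τ₂(M)` whose Sylow subgroups in `G` are abelian: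
`A ≤ E` elementary abelian of order `p²`, `P ≥ A` a Sylow `p`-subgroup of `G` inside `E`. -/
structure CtxA {G : Type u} [Group G] (M E : Subgroup G) (p : ℕ) (A P : Subgroup G) : Prop where
  A_le : A ≤ P
  P_le : P ≤ E
  ea : Cfsg.IsElementaryAbelian p A
  cardA : Nat.card A = p ^ 2
  pgroup : IsPGroup p P
  sylow : ∃ S : Sylow p G, (S : Subgroup G) = P
  comm : IsMulCommutative P
  /-- `A = Ω₁(P)` (the other direction is `ea.2`). -/
  omega : ∀ x ∈ P, x ^ p = 1 → x ∈ A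
  normE : E ≤ Subgroup.normalizer (A : Set G)
  cent_le : Subgroup.centralizer (A : Set G) ≤ E
  inter : M ⊓ Subgroup.normalizer (A : Set G) = E
  not_le : ¬ Subgroup.normalizer (A : Set G) ≤ M
  /-- a subgroup of order `p` of `A` normalized by `N_G(A)` is regular -/
  regLine : ∀ X : Subgroup G, X ≤ A → Nat.card X = p →
    Subgroup.normalizer (A : Set G) ≤ Subgroup.normalizer (X : Set G) →
    Cfsg.sigmaCore M ⊓ Subgroup.centralizer (X : Set G) = ⊥
  exReg : ∃ A₁ : Subgroup G, A₁ ≤ A ∧ Nat.card A₁ = p ∧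
    Cfsg.sigmaCore M ⊓ Subgroup.centralizer (A₁ : Set G) = ⊥
  free : Cfsg.sigmaCore M ⊓ Subgroup.centralizer (A : Set G) = ⊥
  nilp : Group.IsNilpotent (Cfsg.sigmaCore M)

/-! ### Generic packages (pure group theory) -/

/-- Package F (Frobenius fixed points).  `A` abelian, `x ^ q = 1` normalizing `A` with
`C_A(x) = 1`; `W ≠ 1` abelian, normalized by `A` and `x`, of order prime to `|A|`, with
`C_W(A) = 1`.  Then `C_W(x) ≠ 1`.
Proof: if `C_W(x) = 1` then `∏_{i<q} (a x a⁻¹)^i • u = 1` for all `u ∈ W`, `a ∈ A` (it is fixed by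
`a x a⁻¹`); `(a x a⁻¹)^i = d_i(a) x^i` with `d_i(a) = a (x^i a⁻¹ x^{-i}) ∈ A`, and `a ↦ d_i(a)` is a
bijection of `A` for `0 < i < q`; multiplying over `a ∈ A` gives
`1 = u^{|A|} ∏_{0<i<q} ∏_{b∈A} b • (x^i • u) = u^{|A|}` since `∏_{b∈A} b • w ∈ C_W(A) = 1`. -/
def LemF : Prop :=
  ∀ {G : Type u} [Group G] [Finite G] (A W : Subgroup G) (x : G) (q : ℕ),
    q.Prime → IsMulCommutative A → A ≠ ⊥ → x ∈ Subgroup.normalizer (A : Set G) → x ^ q = 1 →
    A ⊓ Subgroup.centralizer ({x} : Set G) = ⊥ →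
    IsMulCommutative W → W ≠ ⊥ → A ≤ Subgroup.normalizer (W : Set G) →
    x ∈ Subgroup.normalizer (W : Set G) → (Nat.card W).Coprime (Nat.card A) →
    W ⊓ Subgroup.centralizer (A : Set G) = ⊥ →
    W ⊓ Subgroup.centralizer ({x} : Set G) ≠ ⊥

/-- Package C.  `A ≠ 1` abelian of order prime to `q`; `z, y` commuting elements normalizing `A`
with `z ^ q, y ^ q ∈ C(A)` and `C_A(y) = 1`.  Then `C_A(z y^j) ≠ 1` for some `j < q`.
Proof: otherwise `∏_{k<q} (z y^j)^k • u = 1` for all `j < q`, `u ∈ A`; multiply over `j`: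
`1 = ∏_k z^k • (∏_j y^{jk} • u) = u^q` (for `k ≠ 0` the inner product is the `y`-norm, in
`C_A(y) = 1`). -/
def LemC : Prop :=
  ∀ {G : Type u} [Group G] [Finite G] (A : Subgroup G) (z y : G) (q : ℕ),
    q.Prime → IsMulCommutative A → A ≠ ⊥ → (Nat.card A).Coprime q →
    z ∈ Subgroup.normalizer (A : Set G) → y ∈ Subgroup.normalizer (A : Set G) → z * y = y * z →
    z ^ q ∈ Subgroup.centralizer (A : Set G) → y ^ q ∈ Subgroup.centralizer (A : Set G) →
    A ⊓ Subgroup.centralizer ({y} : Set G) = ⊥ →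
    ∃ j : ℕ, j < q ∧ A ⊓ Subgroup.centralizer ({z * y ^ j} : Set G) ≠ ⊥

/-- Package D (coprime action on an abelian group): `P = C_P(n) × [P, n]`, with
`[P, n] = {n x n⁻¹ x⁻¹ | x ∈ P}`. -/
def LemD : Prop :=
  ∀ {G : Type u} [Group G] [Finite G] (P : Subgroup G) (n : G) (m : ℕ),
    IsMulCommutative P → n ∈ Subgroup.normalizer (P : Set G) →
    n ^ m ∈ Subgroup.centralizer (P : Set G) → (Nat.card P).Coprime m →
    ∃ D₂ : Subgroup G, D₂ ≤ P ∧ (∀ x ∈ P, n * x * n⁻¹ * x⁻¹ ∈ D₂) ∧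
      (∀ d ∈ D₂, ∃ x ∈ P, d = n * x * n⁻¹ * x⁻¹) ∧
      (P ⊓ Subgroup.centralizer ({n} : Set G)) ⊓ D₂ = ⊥ ∧
      (P ⊓ Subgroup.centralizer ({n} : Set G)) ⊔ D₂ = P

/-- Package Omega: an automorphism of order prime to `p` of an abelian `p`-group that is trivial
on `Ω₁` is trivial (from `LemD`: `[P, n] ∩ Ω₁(P) ≤ C_P(n) ∩ [P, n] = 1`). -/
def LemOmega : Prop :=
  ∀ {G : Type u} [Group G] [Finite G] (p : ℕ) [Fact p.Prime] (P : Subgroup G) (n : G) (m : ℕ),
    IsPGroup p P → IsMulCommutative P → n ∈ Subgroup.normalizer (P : Set G) →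
    n ^ m ∈ Subgroup.centralizer (P : Set G) → m.Coprime p →
    (∀ x ∈ P, x ^ p = 1 → n * x = x * n) → n ∈ Subgroup.centralizer (P : Set G)

/-- Package T (a subgroup of order `p` of an abelian `p`-group meeting the `p`-th powers trivially
is a direct factor).  Proof: take `T ≤ P` maximal with `{x^p | x ∈ P} ⊆ T` and `T ∩ X = 1`. -/
def LemT : Prop :=
  ∀ {G : Type u} [Group G] [Finite G] (p : ℕ) [Fact p.Prime] (P X : Subgroup G),
    IsPGroup p P → IsMulCommutative P → X ≤ P → Nat.card X = p →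
    (∀ e ∈ P, e ^ p ≠ 1 → ¬ X ≤ Subgroup.zpowers e) →
    ∃ T : Subgroup G, T ≤ P ∧ T ⊓ X = ⊥ ∧ T ⊔ X = P

/-- Package AsmA (final assembly, part (a)).  `R e` = "`e` is regular"; `T` a set of primes such
that every singular element is a `T`-element and for `p ∈ T` the `p`-elements of `E` form an
abelian subgroup.  Then the singular elements lie in an abelian normal subgroup of `E`. -/
def LemAsmA : Prop :=
  ∀ {G : Type u} [Group G] [Finite G] (E : Subgroup G) (R : G → Prop) (T : Set ℕ),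
    (∀ e ∈ E, e ≠ 1 → ¬ R e → ∀ p : ℕ, p.Prime → p ∣ orderOf e → p ∈ T) →
    (∀ p ∈ T, p.Prime → p ∣ Nat.card E → ∃ P : Subgroup G, P ≤ E ∧ IsPGroup p P ∧
        IsMulCommutative P ∧ ∀ e ∈ E, (∃ k : ℕ, e ^ p ^ k = 1) → e ∈ P) →
    ∃ A₀ : Subgroup G, A₀ ≤ E ∧ E ≤ Subgroup.normalizer (A₀ : Set G) ∧ IsMulCommutative A₀ ∧
      ∀ e ∈ E, e ≠ 1 → ¬ R e → e ∈ A₀

/-- Package AsmB (final assembly, part (b)).  As in `AsmA`, and each normal Sylow `P` (`p ∈ T`)
has an `E`-invariant subgroup `D` of the same exponent all of whose non-identity elements are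
regular.  Then `E` has a subgroup of the same exponent without singular elements.
Proof: induction over the primes of `T` dividing `|E|`: replace `F ≥ P` by `D · K`, `K` a
complement of `P` in `F` (Schur–Zassenhaus). -/
def LemAsmB : Prop :=
  ∀ {G : Type u} [Group G] [Finite G] (E : Subgroup G) (R : G → Prop) (T : Set ℕ),
    (∀ e ∈ E, ∀ k : ℕ, ¬ R e → e ^ k ≠ 1 → ¬ R (e ^ k)) →
    (∀ e ∈ E, e ≠ 1 → ¬ R e → ∀ p : ℕ, p.Prime → p ∣ orderOf e → p ∈ T) →
    (∀ p ∈ T, p.Prime → p ∣ Nat.card E → ∃ P D : Subgroup G, P ≤ E ∧ IsPGroup p P ∧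
        IsMulCommutative P ∧ (∀ e ∈ E, (∃ k : ℕ, e ^ p ^ k = 1) → e ∈ P) ∧ D ≤ P ∧
        E ≤ Subgroup.normalizer (D : Set G) ∧ Monoid.exponent D = Monoid.exponent P ∧
        ∀ e ∈ D, e ≠ 1 → R e) →
    ∃ E₀ : Subgroup G, E₀ ≤ E ∧ Monoid.exponent E₀ = Monoid.exponent E ∧ ∀ e ∈ E₀, e ≠ 1 → R e

/-- Package Nfin (the case of a single singular subgroup `X` of order `p`, normal in `E`; the
`p`-subgroups of `E` are abelian).  Singular elements are `p`-elements, those of order `p` lie in `X`, and no `e ∈ E` with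
`e ^ p ≠ 1` has `X ≤ ⟨e⟩`.  Then `A₀ = X` works for (a), and a complement `E₀` of `X` in `E`
(Gaschütz `Cfsg.Agent.S0051.result` + `LemT`) works for (b). -/
def LemNfin : Prop :=
  ∀ {G : Type u} [Group G] [Finite G] (E : Subgroup G) (R : G → Prop) (p : ℕ) [Fact p.Prime]
    (X : Subgroup G),
    X ≤ E → Nat.card X = p → E ≤ Subgroup.normalizer (X : Set G) →
    (∀ Q : Subgroup G, Q ≤ E → IsPGroup p Q → IsMulCommutative Q) →
    (∀ e ∈ E, ∀ k : ℕ, ¬ R e → e ^ k ≠ 1 → ¬ R (e ^ k)) →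
    (∀ e ∈ E, e ≠ 1 → ¬ R e → ∃ k : ℕ, e ^ p ^ k = 1) →
    (∀ e ∈ E, e ≠ 1 → ¬ R e → e ^ p = 1 → e ∈ X) →
    (∀ e ∈ E, (∃ k : ℕ, e ^ p ^ k = 1) → e ^ p ≠ 1 → ¬ X ≤ Subgroup.zpowers e) →
    (∃ e ∈ E, e ∉ X ∧ e ^ p = 1) →
    (∃ A₀ : Subgroup G, A₀ ≤ E ∧ E ≤ Subgroup.normalizer (A₀ : Set G) ∧ IsMulCommutative A₀ ∧
      ∀ e ∈ E, e ≠ 1 → ¬ R e → e ∈ A₀) ∧
    ∃ E₀ : Subgroup G, E₀ ≤ E ∧ Monoid.exponent E₀ = Monoid.exponent E ∧ ∀ e ∈ E₀, e ≠ 1 → R e

/-! ### Bender–Glauberman packages -/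

/-- Package A5: `P ⊴ N_G(A)`.  Proof: `C = C_G(A) ≤ E`, `P` is a Sylow `p`-subgroup of `C`,
`N_G(P) ≤ N = N_G(A)`, so `P ≤ [N, N]` (focal).  For each prime `q ≠ p`, `O_q(C)` is an
`N`-invariant `q`-group of rank `≤ 2` (`q ∉ σ(M)`), so by `Helper1.exists_linearization` +
`map_commutator_isPGroup` the `p`-elements of `[N, N]` centralize it; `P` centralizes
`O_p(C) ≤ P`.  Hence `P ≤ C_C(F(C)) ≤ F(C)` (S0009, S0044), so `P = O_p(C)` is normalized
by `N`. -/
def LemA5 : Prop :=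
  ∀ {G : Type u} [Group G] [Finite G] (_hG : Cfsg.IsMinSimpleOddOrder G)
    (_hrank : ∀ (L : Subgroup G), IsCoatom L → ∀ q : ℕ, q.Prime → q ∉ Cfsg.sigma L →
      Cfsg.PRankLE q 2 L)
    (_hfocal : ∀ (p : ℕ) [Fact p.Prime] (P : Sylow p G), (P : Subgroup G) ≠ ⊥ →
      (P : Subgroup G) ≤ ⁅Subgroup.normalizer ((P : Subgroup G) : Set G),
        Subgroup.normalizer ((P : Subgroup G) : Set G)⁆)
    (M : Subgroup G) (_hM : IsCoatom M) (E : Subgroup G)
    (_hE : Cfsg.IsComplIn E (Cfsg.sigmaCore M) M)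
    (_hσ : ∀ q : ℕ, q.Prime → q ∣ Nat.card E → q ∉ Cfsg.sigma M)
    (p : ℕ) [Fact p.Prime] (A P : Subgroup G), CtxA M E p A P →
    Subgroup.normalizer (A : Set G) ≤ Subgroup.normalizer (P : Set G)

/-- Package A7: `C_G(A) ≤ C_G(P)` (`LemOmega`) and `[N, N] ≤ C_G(P)` for `N = N_G(A)`
(linearization of `N` on `A`: the image of `[N, N]` in `GL₂(p)` is a `p`-group, and `N / C_G(A)`
is a `p'`-group). -/
def LemA7 : Prop :=
  ∀ {G : Type u} [Group G] [Finite G] (_hG : Cfsg.IsMinSimpleOddOrder G)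
    (M E : Subgroup G) (p : ℕ) [Fact p.Prime] (A P : Subgroup G), CtxA M E p A P →
    Subgroup.normalizer (A : Set G) ≤ Subgroup.normalizer (P : Set G) →
    Subgroup.centralizer (A : Set G) ≤ Subgroup.centralizer (P : Set G) ∧
    ⁅Subgroup.normalizer (A : Set G), Subgroup.normalizer (A : Set G)⁆ ≤
      Subgroup.centralizer (P : Set G)

/-- The conclusion of the global step for `(M, E, p, A)`: an element `x₁ ∈ E` of prime order
`q ∈ τ₁(M) ∪ τ₃(M)` centralizing `A`, and a `q`-element `z ∈ E` commuting with `x₁` and not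
centralizing `A`, yield `y ∈ N_G(A) \ E` of order `q` commuting with `z` with `C_A(y) = 1`. -/
def GlobConcl {G : Type u} [Group G] (M E : Subgroup G) (A : Subgroup G) : Prop :=
  ∀ (q : ℕ) [Fact q.Prime], q ∈ Cfsg.tau1 M ∪ Cfsg.tau3 M → ∀ x₁ z : G, x₁ ∈ E → z ∈ E →
    orderOf x₁ = q → x₁ ∈ Subgroup.centralizer (A : Set G) → z * x₁ = x₁ * z →
    (∃ k : ℕ, z ^ q ^ k = 1) → z ∉ Subgroup.centralizer (A : Set G) →
    ∃ y : G, y ∈ Subgroup.normalizer (A : Set G) ∧ y ∉ E ∧ y ^ q = 1 ∧ y * z = z * y ∧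
      A ⊓ Subgroup.centralizer ({y} : Set G) = ⊥

/-- Package Glob (the global step; see the project note for the proof). -/
def LemGlob : Prop :=
  ∀ {G : Type u} [Group G] [Finite G] (hG : Cfsg.IsMinSimpleOddOrder G)
    (_h1350 : type_of% (@Cfsg.CfsgFrozen.S1350 G _ _ hG))
    (_h1408 : type_of% (@Cfsg.CfsgFrozen.S1408 G _ _ hG))
    (_h1409 : type_of% (@Cfsg.CfsgFrozen.S1409 G _ _ hG))
    (_h1414 : type_of% (@Cfsg.CfsgFrozen.S1414 G _ _ hG))
    (_h1416 : type_of% (@Cfsg.CfsgFrozen.S1416 G _ _ hG))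
    (_h1417 : type_of% (@Cfsg.CfsgFrozen.S1417 G _ _ hG))
    (M : Subgroup G) (_hM : IsCoatom M) (E : Subgroup G)
    (_hE : Cfsg.IsComplIn E (Cfsg.sigmaCore M) M)
    (p : ℕ) [Fact p.Prime] (_hp : p ∈ Cfsg.tau2 M) (A P : Subgroup G), CtxA M E p A P →
    Subgroup.normalizer (A : Set G) ≤ Subgroup.normalizer (P : Set G) →
    Subgroup.centralizer (A : Set G) ≤ Subgroup.centralizer (P : Set G) →
    GlobConcl M E A

/-- Package A9: an `E`-invariant subgroup `D ≤ P` of the same exponent as `P` without singular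
elements (see the project note for the proof; uses `LemF`, `LemC`, `LemD`). -/
def LemA9 : Prop :=
  ∀ {G : Type u} [Group G] [Finite G] (_hG : Cfsg.IsMinSimpleOddOrder G)
    (M : Subgroup G) (_hM : IsCoatom M) (E : Subgroup G)
    (_hE : Cfsg.IsComplIn E (Cfsg.sigmaCore M) M)
    (_h : ∀ e ∈ E, e ≠ 1 →
      (∀ p : ℕ, p.Prime → p ∣ orderOf e → p ∈ Cfsg.tau1 M ∪ Cfsg.tau3 M) →
      Cfsg.sigmaCore M ⊓ Subgroup.centralizer ({e} : Set G) = ⊥)
    (_hcop : (Nat.card (Cfsg.sigmaCore M)).Coprime (Nat.card E))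
    (p : ℕ) [Fact p.Prime] (A P : Subgroup G), CtxA M E p A P →
    Subgroup.normalizer (A : Set G) ≤ Subgroup.normalizer (P : Set G) →
    Subgroup.centralizer (A : Set G) ≤ Subgroup.centralizer (P : Set G) →
    ⁅Subgroup.normalizer (A : Set G), Subgroup.normalizer (A : Set G)⁆ ≤
      Subgroup.centralizer (P : Set G) →
    (∀ x ∈ E, ∀ q : ℕ, q.Prime → (∃ k : ℕ, x ^ q ^ k = 1) →
      x ∉ Subgroup.centralizer (A : Set G) → q ∈ Cfsg.tau1 M ∪ Cfsg.tau3 M) →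
    GlobConcl M E A →
    ∃ D : Subgroup G, D ≤ P ∧ E ≤ Subgroup.normalizer (D : Set G) ∧
      Monoid.exponent D = Monoid.exponent P ∧
      ∀ e ∈ D, e ≠ 1 → Cfsg.sigmaCore M ⊓ Subgroup.centralizer ({e} : Set G) = ⊥

/-- Package N3 (nonabelian Sylow `p`-subgroups): if `X ≤ A` of order `p` has `C_G(X) ≤ M`, then
no `p`-element `e ∈ E` with `e ^ p ≠ 1` has `X ≤ ⟨e⟩` (see the project note for the proof:
`S ≥ A⟨e⟩` a Sylow `p`-subgroup of `G`; rank `≤ 2`: S1412; rank `≥ 3`: landed S1453). -/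
def LemN3 : Prop :=
  ∀ {G : Type u} [Group G] [Finite G] (hG : Cfsg.IsMinSimpleOddOrder G)
    (_h1412 : type_of% (@Cfsg.CfsgFrozen.S1412 G _ _ hG))
    (M E : Subgroup G) (p : ℕ) [Fact p.Prime]
    (_hS : ∀ S : Sylow p G, ¬ IsMulCommutative (S : Subgroup G))
    (A : Subgroup G) (_hA : A ≤ E ∧ Cfsg.IsElementaryAbelian p A ∧ Nat.card A = p ^ 2)
    (_hEM : E ≤ M) (_hnormE : E ≤ Subgroup.normalizer (A : Set G))
    (_hmax : ∀ B : Subgroup G, Cfsg.IsElementaryAbelian p B → A ≤ B → B = A)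
    (_hab : ∀ Q : Subgroup G, Q ≤ M → IsPGroup p Q → IsMulCommutative Q)
    (X : Subgroup G) (_hX : X ≤ A) (_hXc : Nat.card X = p)
    (_hXM : Subgroup.centralizer (X : Set G) ≤ M),
    ∀ e ∈ E, (∃ k : ℕ, e ^ p ^ k = 1) → e ^ p ≠ 1 → ¬ X ≤ Subgroup.zpowers e

end Cfsg.Agent.Lib.Helper70.BG21
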