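import Mathlib
import Cfsg.Prelude.Def_OddOrderLocal
import Cfsg.Agent.Lib.Helper35.BG.Basic
import Cfsg.Agent.Lib.Helper20.BG.S1408Core
import Cfsg.Agent.Lib.Helper20.PGroupOdd
import Cfsg.Agent.Lib.Helper23.PGroupEA

/-!
Auxiliary group theory for Bender–Glauberman Theorem 12.13 (row 1422), helper70:
elementary abelian subgroups of order `p ^ 2` in noncyclic `p`-groups, products of commuting
subgroups, and the structure of a central product `P₁ * P₂` with `P₁` nonabelian of order `p ^ 3`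
and exponent `p`.
-/

set_option autoImplicit false

namespace Cfsg.Agent.Lib.Helper70.BG

open Cfsg

/-- Elements of the join of two elementwise commuting subgroups are products. -/
theorem mem_sup_of_commute {G : Type*} [Group G] {H K : Subgroup G}
    (hc : ∀ h ∈ H, ∀ k ∈ K, h * k = k * h) {x : G} (hx : x ∈ H ⊔ K) :
    ∃ h ∈ H, ∃ k ∈ K, x = h * k := by
  let T : Subgroup G :=
    { carrier := {x | ∃ h ∈ H, ∃ k ∈ K, x = h * k}
      mul_mem' := by
        rintro _ _ ⟨h, hh, k, hk, rfl⟩ ⟨h', hh', k', hk', rfl⟩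
        refine ⟨h * h', H.mul_mem hh hh', k * k', K.mul_mem hk hk', ?_⟩
        calc h * k * (h' * k') = h * (k * h') * k' := by group
          _ = h * (h' * k) * k' := by rw [hc h' hh' k hk]
          _ = h * h' * (k * k') := by group
      one_mem' := ⟨1, H.one_mem, 1, K.one_mem, by simp⟩
      inv_mem' := by
        rintro _ ⟨h, hh, k, hk, rfl⟩
        refine ⟨h⁻¹, H.inv_mem hh, k⁻¹, K.inv_mem hk, ?_⟩
        have := hc h⁻¹ (H.inv_mem hh) k⁻¹ (K.inv_mem hk)
        rw [mul_inv_rev, this] }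
  have hH : H ≤ T := fun h hh => ⟨h, hh, 1, K.one_mem, by simp⟩
  have hK : K ≤ T := fun k hk => ⟨1, H.one_mem, k, hk, by simp⟩
  exact (sup_le hH hK) hx

/-- A cyclic subgroup is commutative. -/
theorem isMulCommutative_of_isCyclic {G : Type*} [Group G] (Q : Subgroup G) (h : IsCyclic Q) :
    IsMulCommutative Q := by
  obtain ⟨g, hg⟩ := h.exists_generator
  refine ⟨⟨fun a b => ?_⟩⟩
  obtain ⟨m, rfl⟩ := Subgroup.mem_zpowers_iff.mp (hg a)
  obtain ⟨n, rfl⟩ := Subgroup.mem_zpowers_iff.mp (hg b)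
  rw [← zpow_add, ← zpow_add, add_comm]

/-- Commutativity of a subgroup in elementwise form. -/
theorem comm_of_isMulCommutative {G : Type*} [Group G] {Q : Subgroup G} (h : IsMulCommutative Q) :
    ∀ a ∈ Q, ∀ b ∈ Q, a * b = b * a := by
  intro a ha b hb
  have := (isMulCommutative_iff.mp h) ⟨a, ha⟩ ⟨b, hb⟩
  exact congrArg Subtype.val this

theorem isMulCommutative_of_comm {G : Type*} [Group G] {Q : Subgroup G}
    (h : ∀ a ∈ Q, ∀ b ∈ Q, a * b = b * a) : IsMulCommutative Q := by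
  rw [isMulCommutative_iff]
  rintro ⟨a, ha⟩ ⟨b, hb⟩
  exact Subtype.ext (h a ha b hb)

/-- A subgroup containing a noncommutative subgroup is not cyclic. -/
theorem not_isCyclic_of_le {G : Type*} [Group G] {P Q : Subgroup G} (hPQ : P ≤ Q)
    (hP : ¬ IsMulCommutative P) : ¬ IsCyclic Q := by
  intro h
  apply hP
  have h1 := comm_of_isMulCommutative (isMulCommutative_of_isCyclic Q h)
  exact isMulCommutative_of_comm (fun a ha b hb => h1 a (hPQ ha) b (hPQ hb))

/-- A noncyclic `p`-subgroup (`p` odd) contains an elementary abelian subgroup of order `p ^ 2`. -/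
theorem exists_ea_sq_of_not_isCyclic {G : Type*} [Group G] [Finite G] {p : ℕ} [hp : Fact p.Prime]
    (hp2 : p ≠ 2) {Q : Subgroup G} (hQ : IsPGroup p Q) (hnc : ¬ IsCyclic Q) :
    ∃ A : Subgroup G, A ≤ Q ∧ Cfsg.IsElementaryAbelian p A ∧ Nat.card A = p ^ 2 := by
  have hpp : p.Prime := hp.out
  obtain ⟨z₀, x, -, hz₀, hx, hxz, -⟩ := Cfsg.Agent.Lib.Helper20.exists_normal_rank_two hp2 hQ hnc
  have hX : Nat.card (Subgroup.zpowers (z₀ : G)) = p := by
    rw [Nat.card_zpowers, Subgroup.orderOf_coe, hz₀]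
  have hx1 : x ≠ 1 := fun h => hxz (h ▸ Subgroup.one_mem _)
  have hY : Nat.card (Subgroup.zpowers (x : G)) = p := by
    rw [Nat.card_zpowers, Subgroup.orderOf_coe]
    exact orderOf_eq_prime hx hx1
  have hXY : Subgroup.zpowers (z₀ : G) ≠ Subgroup.zpowers (x : G) := by
    intro h
    apply hxz
    have h1 : (x : G) ∈ Subgroup.zpowers (z₀ : G) := h ▸ Subgroup.mem_zpowers _
    obtain ⟨n, hn⟩ := Subgroup.mem_zpowers_iff.mp h1
    refine Subgroup.mem_zpowers_iff.mpr ⟨n, ?_⟩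
    apply Subtype.ext
    rw [Subgroup.coe_zpow]
    exact hn
  have hXQ : Subgroup.zpowers (z₀ : G) ≤ Q := by
    rw [Subgroup.zpowers_le]; exact z₀.2
  have hYQ : Subgroup.zpowers (x : G) ≤ Q := by
    rw [Subgroup.zpowers_le]; exact x.2
  obtain ⟨A, hAQ, hAe, -, hAcard⟩ :=
    Cfsg.Agent.Lib.Helper20.BG.ea_of_two_order_p hQ hXQ hYQ hX hY hXY
  have hAp : IsPGroup p A := Cfsg.Agent.Lib.Helper20.BG.isPGroup_of_ea hAe
  obtain ⟨n, hn⟩ := IsPGroup.iff_card.mp hAp
  have hn2 : 2 ≤ n := by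
    by_contra h
    have h1 : n ≤ 1 := by omega
    have h2 : p ^ n ≤ p ^ 1 := Nat.pow_le_pow_right hpp.pos h1
    rw [pow_one] at h2
    rw [hn] at hAcard
    omega
  have hdvd : p ^ 2 ∣ Nat.card A := by
    rw [hn]; exact pow_dvd_pow p hn2
  obtain ⟨K, hK⟩ := Sylow.exists_subgroup_card_pow_prime p hdvd
  refine ⟨K.map A.subtype, (Subgroup.map_subtype_le K).trans hAQ, ?_, ?_⟩
  · have hcomm := Cfsg.Agent.Lib.Helper20.BG.ea_comm hAe
    refine ⟨?_, ?_⟩
    · apply isMulCommutative_of_comm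
      rintro _ ⟨a, -, rfl⟩ _ ⟨b, -, rfl⟩
      exact hcomm a a.2 b b.2
    · rintro _ ⟨a, -, rfl⟩
      exact hAe.2 a a.2
  · rw [Subgroup.card_map_of_injective A.subtype_injective]
    exact hK

/-- In a subgroup of prime order every non-identity element is a generator. -/
theorem zpowers_eq_of_card_prime {G : Type*} [Group G] [Finite G] {p : ℕ} [hp : Fact p.Prime]
    {B : Subgroup G} (hB : Nat.card B = p) {b : G} (hb : b ∈ B) (hb1 : b ≠ 1) :
    Subgroup.zpowers b = B := by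
  have hle : Subgroup.zpowers b ≤ B := by rw [Subgroup.zpowers_le]; exact hb
  apply Subgroup.eq_of_le_of_card_ge hle
  rw [hB, Nat.card_zpowers]
  have h1 : orderOf b ∣ p := by
    have h2 : orderOf (⟨b, hb⟩ : B) ∣ Nat.card B := orderOf_dvd_natCard _
    rw [hB] at h2
    rwa [← Subgroup.orderOf_coe] at h2
  rcases (Nat.dvd_prime hp.out).mp h1 with h | h
  · exact absurd (orderOf_eq_one_iff.mp h) hb1
  · exact h.ge

/-- The central product structure of a nonabelian Sylow subgroup of rank two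
(the conclusion of row 1412). -/
structure CP {G : Type*} [Group G] (p : ℕ) (S P₁ P₂ : Subgroup G) : Prop where
  sup : P₁ ⊔ P₂ = S
  comm : ∀ a ∈ P₁, ∀ b ∈ P₂, a * b = b * a
  nonab : ¬ IsMulCommutative P₁
  card : Nat.card P₁ = p ^ 3
  exp : Monoid.exponent P₁ = p
  omega : Subgroup.closure {x : G | x ∈ P₂ ∧ x ^ p = 1} = P₁ ⊓ Subgroup.centralizer (P₁ : Set G)

/-- The centre of `P₁`, as a subgroup of `G`. -/
def zOf {G : Type*} [Group G] (P₁ : Subgroup G) : Subgroup G :=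
  P₁ ⊓ Subgroup.centralizer (P₁ : Set G)

section CentralProduct

variable {G : Type*} [Group G] [Finite G] {p : ℕ} [hp : Fact p.Prime] {S P₁ P₂ : Subgroup G}

omit [Finite G] hp in
theorem CP.le (h : CP p S P₁ P₂) : P₁ ≤ S := h.sup ▸ le_sup_left

omit [Finite G] hp in
theorem CP.pow_eq_one (h : CP p S P₁ P₂) {a : G} (ha : a ∈ P₁) : a ^ p = 1 := by
  have h1 := Monoid.pow_exponent_eq_one (⟨a, ha⟩ : P₁)
  rw [h.exp] at h1
  have h2 := congrArg Subtype.val h1
  simpa using h2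

omit [Finite G] hp in
theorem zOf_le (P₁ : Subgroup G) : zOf P₁ ≤ P₁ := inf_le_left

omit [Finite G] hp in
theorem zOf_comm {z a : G} (hz : z ∈ zOf P₁) (ha : a ∈ P₁) : z * a = a * z :=
  ((Subgroup.mem_centralizer_iff.mp hz.2) a ha).symm

omit [Finite G] hp in
theorem CP.z_central (h : CP p S P₁ P₂) {z s : G} (hz : z ∈ zOf P₁) (hs : s ∈ S) :
    z * s = s * z := by
  rw [← h.sup] at hs
  obtain ⟨a, ha, b, hb, rfl⟩ := mem_sup_of_commute h.comm hs
  have h1 : z * a = a * z := zOf_comm hz ha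
  have h2 : z * b = b * z := h.comm z hz.1 b hb
  calc z * (a * b) = (z * a) * b := by group
    _ = a * (z * b) := by rw [h1]; group
    _ = a * b * z := by rw [h2]; group

omit [Finite G] hp in
theorem mem_zOf {x : G} : x ∈ zOf P₁ ↔ x ∈ P₁ ∧ ∀ g ∈ P₁, g * x = x * g := by
  unfold zOf
  rw [Subgroup.mem_inf, Subgroup.mem_centralizer_iff]
  rfl

omit [Finite G] hp in
theorem zOf_eq_map_center (P₁ : Subgroup G) :
    zOf P₁ = (Subgroup.center ↥P₁).map P₁.subtype := by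
  ext x
  rw [mem_zOf, Subgroup.mem_map]
  constructor
  · rintro ⟨hx1, hx2⟩
    refine ⟨⟨x, hx1⟩, ?_, rfl⟩
    apply Subgroup.mem_center_iff.mpr
    intro g
    apply Subtype.ext
    exact hx2 g g.2
  · rintro ⟨y, hy, rfl⟩
    refine ⟨y.2, ?_⟩
    intro g hg
    have := (Subgroup.mem_center_iff.mp hy) ⟨g, hg⟩
    exact congrArg Subtype.val this

theorem CP.card_center (h : CP p S P₁ P₂) : Nat.card (Subgroup.center ↥P₁) = p := by
  have hpp : p.Prime := hp.out
  have hP₁p : IsPGroup p P₁ := IsPGroup.of_card h.card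
  have hnt : Nontrivial P₁ := by
    rw [← Finite.one_lt_card_iff_nontrivial, h.card]
    exact Nat.one_lt_pow (by norm_num) hpp.one_lt
  have hCnt : Nontrivial (Subgroup.center ↥P₁) := hP₁p.center_nontrivial
  have hC1 : Nat.card (Subgroup.center ↥P₁) ≠ 1 := by
    intro hc
    have := Finite.one_lt_card_iff_nontrivial.mpr hCnt
    omega
  have hna : ¬ ∀ a b : P₁, a * b = b * a := by
    intro hc
    apply h.nonab
    rw [isMulCommutative_iff]
    exact hc
  have hdvd : Nat.card (Subgroup.center ↥P₁) ∣ p ^ 3 := by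
    rw [← h.card]; exact Subgroup.card_subgroup_dvd_card _
  obtain ⟨m, hm, hcm⟩ := (Nat.dvd_prime_pow hpp).mp hdvd
  have hidx := Subgroup.card_mul_index (Subgroup.center ↥P₁)
  rw [h.card, hcm] at hidx
  interval_cases m
  · exact absurd (by simpa using hcm) hC1
  · simpa using hcm
  · exfalso
    have hi : (Subgroup.center ↥P₁).index = p := by
      have h3 : p ^ 2 * (Subgroup.center ↥P₁).index = p ^ 2 * p := by rw [hidx]; ring
      exact Nat.eq_of_mul_eq_mul_left (pow_pos hpp.pos 2) h3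
    have hq : Nat.card (↥P₁ ⧸ Subgroup.center ↥P₁) = p := by
      rw [← Subgroup.index_eq_card]; exact hi
    haveI : IsCyclic (↥P₁ ⧸ Subgroup.center ↥P₁) := isCyclic_of_prime_card hq
    apply hna
    intro a b
    exact commutative_of_cyclic_center_quotient (QuotientGroup.mk' (Subgroup.center ↥P₁))
      (by rw [QuotientGroup.ker_mk']) a b
  · exfalso
    have htop : Subgroup.center ↥P₁ = ⊤ := by
      apply Subgroup.eq_top_of_card_eq
      rw [hcm, h.card]
    apply hna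
    intro a b
    have hb : b ∈ Subgroup.center ↥P₁ := htop ▸ Subgroup.mem_top b
    exact (Subgroup.mem_center_iff.mp hb a)

theorem CP.card_z (h : CP p S P₁ P₂) : Nat.card (zOf P₁) = p := by
  rw [zOf_eq_map_center, Subgroup.card_map_of_injective P₁.subtype_injective]
  exact h.card_center

theorem CP.comm_mem_z (h : CP p S P₁ P₂) {g a : G} (hg : g ∈ S) (ha : a ∈ P₁) :
    g * a * g⁻¹ * a⁻¹ ∈ zOf P₁ := by
  have hpp : p.Prime := hp.out
  rw [← h.sup] at hg
  obtain ⟨g₁, hg₁, g₂, hg₂, rfl⟩ := mem_sup_of_commute h.comm hg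
  have h1 : a * g₂ = g₂ * a := h.comm a ha g₂ hg₂
  have h2 : g₁ * g₂ * a * (g₁ * g₂)⁻¹ * a⁻¹ = g₁ * a * g₁⁻¹ * a⁻¹ := by
    calc g₁ * g₂ * a * (g₁ * g₂)⁻¹ * a⁻¹ = g₁ * (g₂ * a) * g₂⁻¹ * g₁⁻¹ * a⁻¹ := by group
      _ = g₁ * (a * g₂) * g₂⁻¹ * g₁⁻¹ * a⁻¹ := by rw [h1]
      _ = g₁ * a * g₁⁻¹ * a⁻¹ := by group
  rw [h2, zOf_eq_map_center]
  have hq : Nat.card (↥P₁ ⧸ Subgroup.center ↥P₁) = p ^ 2 := by
    have hidx := Subgroup.card_mul_index (Subgroup.center ↥P₁)
    rw [h.card, h.card_center] at hidx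
    rw [← Subgroup.index_eq_card]
    have h3 : p * (Subgroup.center ↥P₁).index = p * p ^ 2 := by rw [hidx]; ring
    exact Nat.eq_of_mul_eq_mul_left hpp.pos h3
  have hc := IsPGroup.commutative_of_card_eq_prime_sq hq
    (QuotientGroup.mk ((⟨a, ha⟩ : P₁)⁻¹)) (QuotientGroup.mk ((⟨g₁, hg₁⟩ : P₁)⁻¹))
  rw [← QuotientGroup.mk_mul, ← QuotientGroup.mk_mul, QuotientGroup.eq] at hc
  refine ⟨_, hc, ?_⟩
  simp only [Subgroup.coe_subtype, Subgroup.coe_mul, Subgroup.coe_inv, mul_inv_rev, inv_inv]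
  group

omit [Finite G] hp in
theorem CP.mem_of_pow_eq_one (h : CP p S P₁ P₂) {x : G} (hx : x ∈ S) (hxp : x ^ p = 1) :
    x ∈ P₁ := by
  rw [← h.sup] at hx
  obtain ⟨a, ha, b, hb, rfl⟩ := mem_sup_of_commute h.comm hx
  have hc : Commute a b := h.comm a ha b hb
  rw [hc.mul_pow, h.pow_eq_one ha, one_mul] at hxp
  have hbz : b ∈ zOf P₁ := by
    have : b ∈ Subgroup.closure {x : G | x ∈ P₂ ∧ x ^ p = 1} := Subgroup.subset_closure ⟨hb, hxp⟩
    rw [h.omega] at this
    exact this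
  exact P₁.mul_mem ha hbz.1

omit [Finite G] hp in
theorem CP.exists_not_mem_z (h : CP p S P₁ P₂) : ∃ a ∈ P₁, a ∉ zOf P₁ := by
  by_contra hc
  push Not at hc
  apply h.nonab
  apply isMulCommutative_of_comm
  intro a ha b hb
  exact (zOf_comm (hc b hb) ha).symm

omit [Finite G] hp in
theorem exists_not_commute_of_not_mem_z {a : G} (ha : a ∈ P₁) (haZ : a ∉ zOf P₁) :
    ∃ g ∈ P₁, g * a ≠ a * g := by
  by_contra hc
  push Not at hc
  apply haZ
  exact mem_zOf.mpr ⟨ha, hc⟩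

theorem CP.card_zpowers (h : CP p S P₁ P₂) {a : G} (ha : a ∈ P₁) (haZ : a ∉ zOf P₁) :
    Nat.card (Subgroup.zpowers a) = p := by
  rw [Nat.card_zpowers]
  apply orderOf_eq_prime (h.pow_eq_one ha)
  rintro rfl
  exact haZ (Subgroup.one_mem _)

theorem CP.ea_sup (h : CP p S P₁ P₂) {a : G} (ha : a ∈ P₁) (haZ : a ∉ zOf P₁) :
    Cfsg.IsElementaryAbelian p (Subgroup.zpowers a ⊔ zOf P₁) ∧
      Nat.card ↥(Subgroup.zpowers a ⊔ zOf P₁) = p ^ 2 ∧ Subgroup.zpowers a ⊔ zOf P₁ ≤ P₁ := by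
  have hpp : p.Prime := hp.out
  have hca := h.card_zpowers ha haZ
  have hcz := h.card_z
  have hale : Subgroup.zpowers a ≤ P₁ := by rw [Subgroup.zpowers_le]; exact ha
  have hcomm : ∀ x ∈ Subgroup.zpowers a, ∀ z ∈ zOf P₁, x * z = z * x :=
    fun x hx z hz => (zOf_comm hz (hale hx)).symm
  have hea : Cfsg.IsElementaryAbelian p (Subgroup.zpowers a ⊔ zOf P₁) :=
    Cfsg.Agent.Lib.Helper23.isEA_sup (Cfsg.Agent.Lib.Helper20.BG.ea_of_card_prime hca)
      (Cfsg.Agent.Lib.Helper20.BG.ea_of_card_prime hcz) hcomm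
  refine ⟨hea, ?_, sup_le hale (zOf_le P₁)⟩
  have hAp : IsPGroup p ↥(Subgroup.zpowers a ⊔ zOf P₁) :=
    Cfsg.Agent.Lib.Helper20.BG.isPGroup_of_ea hea
  obtain ⟨n, hn⟩ := IsPGroup.iff_card.mp hAp
  have hlt : Subgroup.zpowers a < Subgroup.zpowers a ⊔ zOf P₁ := by
    apply lt_of_le_of_ne le_sup_left
    intro heq
    have hzle : zOf P₁ ≤ Subgroup.zpowers a := by rw [heq]; exact le_sup_right
    have hzeq : zOf P₁ = Subgroup.zpowers a :=
      Subgroup.eq_of_le_of_card_ge hzle (by rw [hca, hcz])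
    exact haZ (hzeq ▸ Subgroup.mem_zpowers a)
  have h1 : p < p ^ n := by
    have := Cfsg.Agent.Lib.Helper35.BG.card_lt_of_lt hlt
    rwa [hca, hn] at this
  have h2 : p ^ n ≤ p ^ 2 := by
    rw [← hn]
    let f : ↥(Subgroup.zpowers a) × ↥(zOf P₁) → ↥(Subgroup.zpowers a ⊔ zOf P₁) :=
      fun x => ⟨(x.1 : G) * (x.2 : G),
        Subgroup.mul_mem _ (Subgroup.mem_sup_left x.1.2) (Subgroup.mem_sup_right x.2.2)⟩
    have hf : Function.Surjective f := by
      rintro ⟨y, hy⟩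
      obtain ⟨u, hu, v, hv, rfl⟩ := mem_sup_of_commute hcomm hy
      exact ⟨(⟨u, hu⟩, ⟨v, hv⟩), rfl⟩
    have := Nat.card_le_card_of_surjective f hf
    rwa [Nat.card_prod, hca, hcz, ← sq] at this
  have hn2 : n = 2 := by
    have h3 : n ≤ 2 := (Nat.pow_le_pow_iff_right hpp.one_lt).mp h2
    have h4 : 1 < n := by
      by_contra hc
      have h5 : p ^ n ≤ p ^ 1 := Nat.pow_le_pow_right hpp.pos (by omega)
      rw [pow_one] at h5
      omega
    omega
  rw [hn, hn2]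

/-- The noncentral subgroups of order `p` of `⟨a⟩ Z` are conjugate to `⟨a⟩` under `S`. -/
theorem CP.conj_of_le (h : CP p S P₁ P₂) {a : G} (ha : a ∈ P₁) (haZ : a ∉ zOf P₁)
    {B : Subgroup G} (hB : B ≤ Subgroup.zpowers a ⊔ zOf P₁) (hBc : Nat.card B = p)
    (hBZ : B ≠ zOf P₁) :
    ∃ g ∈ S, B = (Subgroup.zpowers a).map (MulAut.conj g).toMonoidHom := by
  have hpp : p.Prime := hp.out
  have hca := h.card_zpowers ha haZ
  have hcz := h.card_z
  have hale : Subgroup.zpowers a ≤ P₁ := by rw [Subgroup.zpowers_le]; exact ha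
  have hcomm : ∀ x ∈ Subgroup.zpowers a, ∀ z ∈ zOf P₁, x * z = z * x :=
    fun x hx z hz => (zOf_comm hz (hale hx)).symm
  -- a generator of `B`
  have hBnt : Nontrivial B := by
    rw [← Finite.one_lt_card_iff_nontrivial, hBc]; exact hpp.one_lt
  obtain ⟨⟨b, hbB⟩, hb1'⟩ := exists_ne (1 : B)
  have hb1 : b ≠ 1 := fun hb => hb1' (Subtype.ext hb)
  have hBb : Subgroup.zpowers b = B := zpowers_eq_of_card_prime hBc hbB hb1
  have hbZ : b ∉ zOf P₁ := by
    intro hbz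
    apply hBZ
    have hle : B ≤ zOf P₁ := by rw [← hBb, Subgroup.zpowers_le]; exact hbz
    exact Subgroup.eq_of_le_of_card_ge hle (by rw [hBc, hcz])
  obtain ⟨x, hx, z', hz', hbxz⟩ := mem_sup_of_commute hcomm (hB hbB)
  have hx1 : x ≠ 1 := by
    rintro rfl
    rw [one_mul] at hbxz
    exact hbZ (hbxz ▸ hz')
  have hxa : Subgroup.zpowers x = Subgroup.zpowers a := zpowers_eq_of_card_prime hca hx hx1
  obtain ⟨m, hm⟩ := Subgroup.mem_zpowers_iff.mp (hxa ▸ Subgroup.mem_zpowers a)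
  have hxz : Commute x z' := hcomm x hx z' hz'
  have hbm : b ^ m = a * z' ^ m := by
    rw [hbxz, hxz.mul_zpow, hm]
  have hzm : z' ^ m ∈ zOf P₁ := Subgroup.zpow_mem _ hz' m
  have hbm1 : b ^ m ≠ 1 := by
    intro hc
    rw [hbm] at hc
    have : a = (z' ^ m)⁻¹ := eq_inv_of_mul_eq_one_left hc
    exact haZ (this ▸ Subgroup.inv_mem _ hzm)
  have hBbm : Subgroup.zpowers (b ^ m) = B :=
    zpowers_eq_of_card_prime hBc (Subgroup.zpow_mem _ hbB m) hbm1
  -- conjugation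
  obtain ⟨g, hg, hga⟩ := exists_not_commute_of_not_mem_z ha haZ
  have hgS : g ∈ S := h.le hg
  have hz : g * a * g⁻¹ * a⁻¹ ∈ zOf P₁ := h.comm_mem_z hgS ha
  have hz1 : g * a * g⁻¹ * a⁻¹ ≠ 1 := by
    intro hc
    apply hga
    calc g * a = (g * a * g⁻¹ * a⁻¹) * (a * g) := by group
      _ = a * g := by rw [hc, one_mul]
  obtain ⟨z, hzdef⟩ : ∃ z, z = g * a * g⁻¹ * a⁻¹ := ⟨_, rfl⟩
  rw [← hzdef] at hz hz1
  have hZz : Subgroup.zpowers z = zOf P₁ := zpowers_eq_of_card_prime hcz hz hz1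
  have hzm' : z' ^ m ∈ Subgroup.zpowers z := hZz ▸ hzm
  rw [← mem_powers_iff_mem_zpowers] at hzm'
  obtain ⟨n, hn⟩ := hzm'
  have hgaz : g * a * g⁻¹ = z * a := by rw [hzdef]; group
  have hind : ∀ k : ℕ, g ^ k * a * (g ^ k)⁻¹ = z ^ k * a := by
    intro k
    induction k with
    | zero => simp
    | succ k ih =>
      have hzk : z ^ k ∈ zOf P₁ := Subgroup.pow_mem _ hz k
      have hc : z ^ k * g = g * z ^ k := h.z_central hzk hgS
      calc g ^ (k + 1) * a * (g ^ (k + 1))⁻¹ = g * (g ^ k * a * (g ^ k)⁻¹) * g⁻¹ := by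
            rw [pow_succ']; group
        _ = g * (z ^ k * a) * g⁻¹ := by rw [ih]
        _ = (g * z ^ k) * a * g⁻¹ := by group
        _ = (z ^ k * g) * a * g⁻¹ := by rw [hc]
        _ = z ^ k * (g * a * g⁻¹) := by group
        _ = z ^ k * (z * a) := by rw [hgaz]
        _ = z ^ (k + 1) * a := by rw [pow_succ]; group
  refine ⟨g ^ n, Subgroup.pow_mem _ hgS n, ?_⟩
  rw [MonoidHom.map_zpowers, ← hBbm]
  congr 1
  rw [hbm, ← hn]
  simp only [MulEquiv.coe_toMonoidHom, MulAut.conj_apply]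
  rw [hind n]
  exact (zOf_comm (Subgroup.pow_mem _ hz n) ha).symm

end CentralProduct

end Cfsg.Agent.Lib.Helper70.BG
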